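import Mathlib
import Cfsg.Agent.H540.E8C.O8.Iface
import Cfsg.Agent.H451.L7.Dim
import Cfsg.Agent.H942.Common

/-!
# S5919, the row `Ω₈⁺(2)`: task O8-NUM1 (helper966)

The 64 elements of `U` are the words `word (us k)`, `k < 64`; `cjw` lists words in the root elements of `GL(W)` conjugating them
to `gen (1, 2)` (rank 2, 35 elements) or to `gen (1, 2) * gen (4, 8)` (rank 4, 28 elements).
-/

set_option autoImplicit false
set_option maxRecDepth 100000

namespace Cfsg.Agent.H966.E8.NumO8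

open Cfsg Cfsg.Lie Module
open Cfsg.Agent.H540.E8C.End Cfsg.Agent.H540.E8C.O8
open Cfsg.Agent.StdO8.Model (Om)
open Cfsg.Agent.StdO8.Code
open Cfsg.Agent.H657 IsLocalRing
open Cfsg.Agent.H942.E8Alc Cfsg.Agent.H942.Common Cfsg.Agent.H942.E8Val

/-- the words of the 64 elements of `U` -/
def us (k : ℕ) : List (ℕ × ℕ) := (if k.testBit 0 then [(1, 2)] else []) ++ (if k.testBit 1 then [(1, 4)] else []) ++
  (if k.testBit 2 then [(1, 8)] else []) ++ (if k.testBit 3 then [(2, 4)] else []) ++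
  (if k.testBit 4 then [(2, 8)] else []) ++ (if k.testBit 5 then [(4, 8)] else [])

/-- the kind of an element of `U`: 0 for the identity, 1 for rank 2, 2 for rank 4 -/
def kd (k : ℕ) : ℕ := if k = 0 then 0 else
  if ((k.testBit 0 && k.testBit 5) ^^ (k.testBit 1 && k.testBit 4) ^^ (k.testBit 2 && k.testBit 3)) then 2 else 1

/-- the conjugating words -/
def cjw : List (List (ℕ × ℕ)) := [[],
  [], [(4, 32), (2, 64)], [(4, 32)], [(8, 32), (2, 128)],
  [(8, 32)], [(4, 32), (2, 64), (8, 64)], [(4, 32), (8, 32)], [(4, 16), (1, 64)],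
  [(4, 16)], [(4, 16), (1, 32), (1, 64)], [(4, 16), (1, 32)], [(1, 64), (2, 128), (4, 16)],
  [(1, 64), (4, 16)], [(1, 64), (1, 128), (2, 128), (4, 16)], [(1, 64), (1, 128), (4, 16)], [(8, 16), (1, 128)],
  [(8, 16)], [(1, 128), (2, 64), (8, 16)], [(1, 128), (8, 16)], [(8, 16), (1, 32), (1, 128)],
  [(8, 16), (1, 32)], [(1, 64), (1, 128), (2, 64), (4, 16)], [(1, 64), (1, 128), (8, 16)], [(4, 16), (1, 64), (8, 64)],
  [(4, 16), (8, 16)], [(1, 128), (2, 64), (2, 128), (8, 16)], [(1, 128), (2, 128), (8, 16)], [(1, 64), (2, 64), (2, 128), (4, 16)],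
  [(1, 64), (2, 64), (4, 16)], [(4, 16), (1, 32), (1, 64), (8, 64)], [(4, 16), (1, 32), (8, 64)], [(4, 16), (1, 64), (8, 32), (2, 128)],
  [], [(8, 16), (4, 32), (2, 64)], [(1, 128)], [(4, 16), (8, 32), (2, 128)],
  [(1, 64)], [(4, 16), (1, 32), (8, 32), (2, 128)], [(1, 64), (1, 128)], [(4, 16), (1, 64), (8, 32)],
  [(2, 128)], [(4, 16), (1, 32), (1, 64), (8, 16)], [(1, 128), (2, 128)], [(1, 64), (2, 128)],
  [(4, 16), (8, 32)], [(1, 64), (1, 128), (2, 128)], [(4, 16), (1, 32), (8, 32)], [(8, 16), (1, 128), (4, 32)],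
  [(2, 64)], [(1, 128), (2, 64)], [(8, 16), (4, 32)], [(4, 16), (8, 16), (8, 32), (2, 128)],
  [(1, 64), (2, 64)], [(1, 64), (1, 128), (2, 64)], [(8, 16), (1, 32), (4, 32)], [(4, 16), (1, 32), (8, 16), (1, 128)],
  [(2, 64), (2, 128)], [(1, 128), (2, 64), (2, 128)], [(4, 16), (1, 32), (8, 16)], [(1, 64), (2, 64), (2, 128)],
  [(4, 16), (8, 16), (8, 32)], [(4, 16), (1, 32), (8, 16), (1, 64)], [(1, 64), (1, 128), (2, 16)]]

/-- the standard words -/
def tg (k : ℕ) : List (ℕ × ℕ) := if kd k = 1 then [(1, 2)] else if kd k = 2 then [(1, 2), (4, 8)] else []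

theorem chk_conj : ∀ k < 64, same (cjw.getD k [] ++ us k ++ (cjw.getD k []).reverse) (tg k) = true := by decide +kernel

theorem chk_mul : ∀ k < 64, ∀ i < 6, same (us (2 ^ i) ++ us k) (us (k ^^^ 2 ^ i)) = true := by decide +kernel

theorem chk_gen : ∀ p ∈ gU, ∃ i < 6, us (2 ^ i) = [p] := by decide +kernel

theorem chk_us : ∀ k < 64, ∀ p ∈ us k, p ∈ gU := by decide +kernel

theorem chk_one : ∀ k < 64, k ≠ 0 → basis.all (fun b => ev (us k) b == b) = false := by decide +kernel

theorem chk_lt : ∀ k < 64, ∀ b ∈ basis, ev (us k) b < 256 := by decide +kernel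

theorem basis_lt : ∀ b ∈ basis, b < 256 := by decide

theorem chk_ok : ∀ k < 64, (us k).all ok = true := by decide +kernel

theorem lt_xor {k i : ℕ} (hk : k < 64) (hi : i < 6) : k ^^^ 2 ^ i < 64 := by
  apply Nat.xor_lt_two_pow (n := 6) hk
  exact Nat.pow_lt_pow_right (by norm_num) hi

/-- the elements of `U` -/
noncomputable def L : List Om := (List.range 64).map fun k => word (us k)

theorem mem_L {g : Om} : g ∈ L ↔ ∃ k < 64, word (us k) = g := by
  simp [L]

theorem one_mem : (1 : Om) ∈ L := mem_L.2 ⟨0, by norm_num, rfl⟩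

theorem gen_mul_mem {p : ℕ × ℕ} (hp : p ∈ gU) {g : Om} (hg : g ∈ L) : gen p * g ∈ L := by
  obtain ⟨k, hk, rfl⟩ := mem_L.1 hg
  obtain ⟨i, hi, h⟩ := chk_gen p hp
  rw [← word_single, ← h, ← word_append, word_eq (chk_mul k hk i hi)]
  exact mem_L.2 ⟨_, lt_xor hk hi, rfl⟩

theorem word_mul_mem {l : List (ℕ × ℕ)} (hl : ∀ p ∈ l, p ∈ gU) {g : Om} (hg : g ∈ L) : word l * g ∈ L := by
  induction l with
  | nil => rw [word_nil, one_mul]; exact hg
  | cons p l ih =>
    rw [word_cons, mul_assoc]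
    exact gen_mul_mem (hl p (by simp)) (ih fun p' hp' => hl p' (by simp [hp']))

theorem mul_mem : ∀ a ∈ L, ∀ b ∈ L, a * b ∈ L := by
  intro a ha b hb
  obtain ⟨k, hk, rfl⟩ := mem_L.1 ha
  exact word_mul_mem (chk_us k hk) hb

theorem word_ne_one {k : ℕ} (hk : k < 64) (h0 : k ≠ 0) : word (us k) ≠ 1 := by
  intro h
  have h1 := chk_one k hk h0
  rw [List.all_eq_false] at h1
  obtain ⟨b, hb, h2⟩ := h1
  apply h2
  rw [beq_iff_eq]
  have h3 := word_dec (chk_ok k hk) b
  rw [h] at h3
  have h4 : dec b = dec (ev (us k) b) := h3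
  have hb' : b < 256 := basis_lt b hb
  exact (dec_inj hb' (chk_lt k hk b hb) h4).symm

/-- recovery of the code from the action -/
def rec (a b c : ℕ) : ℕ := (a >>> 1 &&& 7) + 8 * (b >>> 2 &&& 3) + 32 * (c >>> 3 &&& 1)

theorem chk_rec : ∀ k < 64, rec (ev (us k) 16) (ev (us k) 32) (ev (us k) 64) = k := by decide +kernel

theorem nodup : L.Nodup := by
  rw [L, List.nodup_map_iff_inj_on List.nodup_range]
  intro j hj k hk h
  rw [List.mem_range] at hj hk
  have e : ∀ b ∈ basis, ev (us j) b = ev (us k) b := by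
    intro b hb
    apply dec_inj (chk_lt j hj b hb) (chk_lt k hk b hb)
    rw [← word_dec (chk_ok j hj), ← word_dec (chk_ok k hk), h]
  rw [← chk_rec j hj, ← chk_rec k hk, e 16 (by decide), e 32 (by decide), e 64 (by decide)]

theorem length_L : L.length = 64 := by
  rw [L, List.length_map, List.length_range]

theorem gen_sq (p : ℕ × ℕ) : gen p * gen p = 1 := by
  have h := word_reverse [p]
  rw [List.reverse_singleton, word_single] at h
  nth_rewrite 1 [h]
  exact inv_mul_cancel _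

/-- sums of the values of a function of three values -/
theorem sum_kd {R : Type*} [CommRing R] (f : ℕ → ℕ) (a b c : R) (l : List ℕ) :
    (l.map fun k => if f k = 1 then a else if f k = 2 then b else c).sum =
      (l.countP fun k => f k = 1 : ℕ) * a + (l.countP fun k => f k = 2 : ℕ) * b +
        (l.countP fun k => ¬ (f k = 1 ∨ f k = 2) : ℕ) * c := by
  induction l with
  | nil => simp
  | cons k l ih =>
    rw [List.map_cons, List.sum_cons, ih]
    by_cases h1 : f k = 1
    · simp [h1]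
      ring
    · by_cases h2 : f k = 2
      · simp [h2]
        ring
      · simp [h1, h2]
        ring

theorem cnt1 : ((List.range 64).countP fun k => kd k = 1) = 35 := by decide +kernel
theorem cnt2 : ((List.range 64).countP fun k => kd k = 2) = 28 := by decide +kernel
theorem cnt0 : ((List.range 64).countP fun k => ¬ (kd k = 1 ∨ kd k = 2)) = 1 := by decide +kernel

theorem kd0 : ∀ k < 64, kd k ≠ 1 → kd k ≠ 2 → k = 0 := by decide +kernel

section vals

variable {V : ValuationSubring ℂ} [CharP (ResidueField V) 3] {F : Om →* E}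

theorem bc_one : bc 3 (adj V F) (1 : Om) = 248 := by
  obtain ⟨t₁, t₂, t₄, -, h1, -, -, h2, -, -⟩ := val8 V F (g := 1) (one_pow 8)
  rw [h1, h2.1 (map_one F)]
  norm_num

theorem L8_two : ∀ x ∈ L8, x.2.1 = 248 → x.2.2 = 248 → x.1 ≠ 248 → x.1 = -8 ∨ x.1 = 24 := by decide

theorem exists_t (hF : Function.Injective F) {g : Om} (hg : g ^ 2 = 1) (h1 : g ≠ 1) :
    ∃ t : ℤ, (t = -8 ∨ t = 24) ∧ bc 3 (adj V F) g = t := by
  have h4 : g ^ 4 = 1 := by
    have := pow_mul g 2 2
    rwa [hg, one_pow] at this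
  have h8 : g ^ 8 = 1 := by
    have := pow_mul g 2 4
    rwa [hg, one_pow] at this
  obtain ⟨t₁, t₂, t₄, hL, e1, -, -, e2, e3, e4⟩ := val8 V F (g := g) h8
  have f2 : t₂ = 248 := e3.1 (by rw [hg, map_one])
  have f4 : t₄ = 248 := e4.1 (by rw [h4, map_one])
  have f1 : t₁ ≠ 248 := by
    intro h
    have h5 := e2.2 h
    exact h1 (hF (by rw [h5, map_one]))
  exact ⟨t₁, L8_two _ hL f2 f4 f1, e1⟩

theorem bc_us {k : ℕ} (hk : k < 64) : bc 3 (adj V F) (word (us k)) = bc 3 (adj V F) (word (tg k)) := by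
  have h := word_eq (chk_conj k hk)
  rw [word_append, word_append, word_reverse] at h
  rw [← h, bc_conj]

theorem sum_L : (L.map fun g => bc 3 (adj V F) g).sum =
    35 * bc 3 (adj V F) (gen (1, 2)) + 28 * bc 3 (adj V F) (gen (1, 2) * gen (4, 8)) + 248 := by
  have h1 : (L.map fun g => bc 3 (adj V F) g) = (List.range 64).map fun k =>
      if kd k = 1 then bc 3 (adj V F) (gen (1, 2)) else if kd k = 2 then bc 3 (adj V F) (gen (1, 2) * gen (4, 8)) else 248 := by
    rw [L, List.map_map]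
    apply List.map_congr_left
    intro k hk
    rw [List.mem_range] at hk
    rw [Function.comp_apply, bc_us hk, tg]
    split_ifs with h1 h2
    · rw [word_single]
    · rw [word_cons, word_single]
    · rw [word_nil, bc_one]
  rw [h1, sum_kd, cnt1, cnt2, cnt0]
  push_cast
  ring

end vals

theorem ne12 : gen (1, 2) ≠ (1 : Om) := by
  have h := word_ne_one (k := 1) (by norm_num) (by norm_num)
  rwa [show us 1 = [(1, 2)] from rfl, word_single] at h

theorem ne1248 : gen (1, 2) * gen (4, 8) ≠ (1 : Om) := by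
  have h := word_ne_one (k := 33) (by norm_num) (by norm_num)
  rwa [show us 33 = [(1, 2), (4, 8)] from rfl, word_cons, word_single] at h

theorem sq1248 : (gen (1, 2) * gen (4, 8)) ^ 2 = (1 : Om) := by
  have h := word_eq (l := [(1, 2), (4, 8), (1, 2), (4, 8)]) (l' := []) (by decide +kernel)
  rw [word_cons, word_cons, word_cons, word_single, word_nil] at h
  rw [pow_two, mul_assoc]
  exact h

theorem ar : ∀ a b : ℤ, (a = -8 ∨ a = 24) → (b = -8 ∨ b = 24) → ∀ n : ℕ, 35 * a + 28 * b + 248 = 64 * (n : ℤ) →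
    a = -8 ∧ b = 24 ∧ n = 10 := by
  rintro a b (rfl | rfl) (rfl | rfl) n h <;> omega

theorem fix_eq (F : Om →* E) : fx F gU = Cfsg.Agent.H942.L7.fixL F L := by
  ext v
  constructor
  · intro h g hg
    obtain ⟨k, hk, rfl⟩ := mem_L.1 hg
    have h1 : ∀ l : List (ℕ × ℕ), (∀ p ∈ l, p ∈ gU) → ac (F (word l)) v = v := by
      intro l
      induction l with
      | nil => intro _; rw [word_nil, map_one, ac_one]
      | cons p l ih =>
        intro hl
        rw [word_cons, map_mul, ac_mul, ih fun p' hp' => hl p' (by simp [hp'])]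
        exact h p (hl p (by simp))
    exact h1 _ (chk_us k hk)
  · intro h p hp
    have h1 := gen_mul_mem hp one_mem
    rw [mul_one] at h1
    exact h _ h1

/-- **Task O8-NUM1.** -/
theorem num1 : Num1 := by
  intro F hF
  have key : ∀ (M : Ideal AlgInt) (V : ValuationSubring ℂ) (_ : IsPModular 3 M) (_ : Above M V) [CharP (ResidueField V) 3],
      bc 3 (adj V F) (gen (1, 2)) = -8 ∧ bc 3 (adj V F) (gen (1, 2) * gen (4, 8)) = 24 ∧
        finrank (ZMod 3) (fx F gU) = 10 := by
    intro M V hM hV hc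
    have h := Cfsg.Agent.H451.L7.dim M V hM hV Om F L nodup one_mem mul_mem (by rw [length_L]; decide)
    rw [sum_L, length_L, ← fix_eq] at h
    obtain ⟨a, ha, ea⟩ := exists_t (V := V) hF (g := gen (1, 2)) (by rw [pow_two, gen_sq]) ne12
    obtain ⟨b, hb, eb⟩ := exists_t (V := V) hF (g := gen (1, 2) * gen (4, 8)) sq1248 ne1248
    rw [ea, eb] at h
    have h' : 35 * a + 28 * b + 248 = 64 * (finrank (ZMod 3) (fx F gU) : ℤ) := by exact_mod_cast h
    obtain ⟨h1, h2, h3⟩ := ar a b ha hb _ h'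
    refine ⟨by rw [ea, h1]; norm_num, by rw [eb, h2]; norm_num, h3⟩
  obtain ⟨M, V, hM, hV, hc⟩ := exists_V
  exact ⟨(key M V hM hV).2.2, fun M V hM hV _ => ⟨(key M V hM hV).1, (key M V hM hV).2.1⟩⟩

end Cfsg.Agent.H966.E8.NumO8
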